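import Mathlib
import Cfsg.Agent.H378.Spr.AutN
import Cfsg.Agent.H378.Spr.F4Wt
import Cfsg.Agent.H378.Spr.E6Cert
import Cfsg.Agent.H166.OutTwESix
import Cfsg.Agent.Nodes.RGDTwCoord

/-!
# The involutory automorphisms of `²E₆(2)` (helper378)

For every automorphism `a` of order 2 of `²E₆(2)` there is an `x` such that every `a`-invariant subgroup over `x` has order
divisible by `13` and `19`.
-/

set_option autoImplicit false
set_option linter.unusedSectionVars false
set_option maxHeartbeats 400000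

namespace Cfsg.Agent.H378.TE6two

open CoxeterSystem Cfsg.Agent.ChevalleyStructure.CoxeterGeom Cfsg.Agent.Tits.Roots Cfsg.Agent.Tits.Core
  Cfsg.Agent.Tits.Exchange Cfsg.Agent.Nodes.Reps Cfsg.Agent.Nodes.BNOf Cfsg.Agent.Nodes.StabComb
  Cfsg.Agent.Nodes.Bruhat Cfsg.Agent.Nodes.OppDec Cfsg.Agent.Nodes.RGDTwGen Cfsg.Agent.Nodes.RGDChev
  Cfsg.Agent.Nodes.RGDFold Cfsg.Agent.Nodes.RGDFoldSL
open Cfsg.Agent.KFacts.RgdOpp Cfsg.Agent.KFacts.RgdAut Cfsg.Agent.KFacts.RgdDiag Cfsg.Agent.KFacts.RgdRigid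
  Cfsg.Agent.KFacts.RgdField Cfsg.Agent.KFacts.RgdTau Cfsg.Agent.KFacts.RgdNodes
open Cfsg.Lie Cfsg.Agent.ChevalleyStructure Cfsg.Agent.ChevalleyStructure.Elts Cfsg.Agent.ChevStructure.FieldMap
open Cfsg.Agent.ChevalleyStructure.SL2Hom (up lo)
open Cfsg.Agent.KFacts.TwESix.NodeCoord Cfsg.Agent.KFacts.TwESix.Out Cfsg.Agent.KFacts.TwESix.OutTwo
open Cfsg.Agent.Nodes.RGDTwE6 Cfsg.Agent.Nodes.RGDTwNode.E6
open Cfsg.Agent.ChevalleyStructure.TwE6Basic (hE6 single_mem pair_mem twisted_le_iff exists_frob twisted_le_fix)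
open Cfsg.Agent.CpAut.RgdTwE6 (st rs st_up st_n st_pow ntau_st ntau_of_ftau tau_phi coe_up map_tw)
open Cfsg.Agent.CpAut.RgdTwStd (glE_xG coe_fldG)
open Cfsg.Agent.H378.MVec (sg sg_nil sg_cons sg_append tv sqc Ok tv_sq two_zero chk chk_dvd sg_mem)
open Cfsg.Agent.H378.E6Cert
open Cfsg.Agent.H378

universe u

/-! ### The field with four elements -/

section field

variable {K : Type u} [Field K]

/-- `ω² = ω + 1` -/
theorem exists_om [Fintype K] [CharP K 2] (hK : Fintype.card K = 2 ^ 2) :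
    ∃ om : K, om * om = om + 1 ∧ ∀ x : K, x = 0 ∨ x = 1 ∨ x = om ∨ x = om + 1 := by
  classical
  have h2 := two_zero (K := K)
  have h4 : ∀ x : K, x ^ 4 = x := by
    intro x
    have := FiniteField.pow_card x
    rwa [hK] at this
  have hq : ∀ x : K, x ≠ 0 → x ≠ 1 → x * x = x + 1 := by
    intro x h0 h1
    have e := h4 x
    have e1 : x * ((x - 1) * (x * x + x + 1)) = 0 := by linear_combination e
    rcases mul_eq_zero.1 e1 with h | h
    · exact absurd h h0
    · rcases mul_eq_zero.1 h with h | h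
      · exact absurd (sub_eq_zero.1 h) h1
      · linear_combination h - (x + 1) * h2
  obtain ⟨om, hom⟩ : ∃ om : K, om ∉ ({0, 1} : Finset K) := by
    by_contra hcon
    push Not at hcon
    have h1 : (Finset.univ : Finset K) ⊆ {0, 1} := fun x _ => hcon x
    have h3 := Finset.card_le_card h1
    rw [Finset.card_univ, hK] at h3
    have h5 := Finset.card_le_two (a := (0 : K)) (b := 1)
    omega
  have h0 : om ≠ 0 := fun h => hom (by simp [h])
  have h1 : om ≠ 1 := fun h => hom (by simp [h])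
  refine ⟨om, hq om h0 h1, fun x => ?_⟩
  by_cases hx0 : x = 0
  · exact Or.inl hx0
  · by_cases hx1 : x = 1
    · exact Or.inr (Or.inl hx1)
    · have e1 := hq x hx0 hx1
      have e2 := hq om h0 h1
      have e3 : (x - om) * (x - (om + 1)) = 0 := by linear_combination e1 + e2 + (- x * om + om + 1) * h2
      rcases mul_eq_zero.1 e3 with h | h
      · exact Or.inr (Or.inr (Or.inl (sub_eq_zero.1 h)))
      · exact Or.inr (Or.inr (Or.inr (sub_eq_zero.1 h)))

variable [CharP K 2]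

/-- the automorphisms of the field with four elements -/
theorem tau_cases {om : K} (ho : om * om = om + 1) (hall : ∀ x : K, x = 0 ∨ x = 1 ∨ x = om ∨ x = om + 1)
    (τ : K ≃+* K) : ∃ b : Bool, (∀ c, c = 1 ∨ c = 2 ∨ c = 3 → τ (tv om c) = tv om (if b = true then sqc c else c)) ∧
      (b = false → τ = 1) ∧ τ * τ = 1 := by
  have h2 := two_zero (K := K)
  have hτ0 : τ om ≠ 0 := by
    intro h
    have h1 : om = 0 := τ.injective (by rw [h, map_zero])
    rw [h1] at ho
    simp at ho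
  have hτ1 : τ om ≠ 1 := by
    intro h
    have h1 : om = 1 := τ.injective (by rw [h, map_one])
    rw [h1] at ho
    have : (1 : K) = 0 := by linear_combination - ho + 0 * h2
    exact one_ne_zero this
  rcases hall (τ om) with h | h | h | h
  · exact absurd h hτ0
  · exact absurd h hτ1
  · have h1 : τ = 1 := by
      ext x
      rw [RingAut.one_apply]
      rcases hall x with rfl | rfl | rfl | rfl
      · exact map_zero τ
      · exact map_one τ
      · exact h
      · rw [map_add, map_one, h]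
    refine ⟨false, fun c _ => ?_, fun _ => h1, by rw [h1, mul_one]⟩
    rw [h1, RingAut.one_apply, if_neg (by simp)]
  · refine ⟨true, fun c hc => ?_, fun hb => by simp at hb, ?_⟩
    · rw [if_pos rfl]
      rcases hc with rfl | rfl | rfl
      · exact map_one τ
      · exact h
      · show τ (om + 1) = om
        rw [map_add, map_one, h]
        linear_combination h2
    · ext x
      rw [RingAut.mul_apply, RingAut.one_apply]
      rcases hall x with rfl | rfl | rfl | rfl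
      · rw [map_zero, map_zero]
      · rw [map_one, map_one]
      · rw [h, map_add, map_one, h]
        linear_combination h2
      · rw [map_add, map_one, h, map_add, map_add, map_one, h]
        linear_combination h2

end field

/-! ### Words -/

section words

variable {K : Type u} [Field K]

/-- admissible words over `E₆` -/
def Adm (om : K) (w : List (ℕ × ℕ)) : Prop := ∀ e ∈ w, e.1 < 72 ∧ (e.2 = 1 ∨ e.2 = 2 ∨ e.2 = 3) ∧ Ok om e.2

theorem pw_eq (o : List ℕ) (o' : List (Fin 6)) (h : o = o'.map Fin.val) {s : ℕ} (hs : s < 72) :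
    pw o s < 72 ∧ pw o s = wp chevE6 o' s := by
  subst h
  induction o' with
  | nil => exact ⟨hs, rfl⟩
  | cons i o' ih =>
    have h1 : pw (((i :: o').map Fin.val)) s = (pls.getD i.val []).getD (pw (o'.map Fin.val) s) 0 := rfl
    have h2 : wp chevE6 (i :: o') s = chevE6.reflectRoot i.val (wp chevE6 o' s) := rfl
    have h3 := of_decide_eq_true (List.all_eq_true.1 (List.all_eq_true.1 chk_pls i.val (List.mem_range.2 i.2))
      _ (List.mem_range.2 ih.1))
    have h4 : chevE6.reflectRoot i.val (pw (o'.map Fin.val) s) < 72 :=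
      Cfsg.Agent.ChevalleyStructure.NPerm.reflectRoot_lt hp.inList (lt_rank hp i) ih.1
    rw [h1, h2, h3]
    exact ⟨h4, by rw [ih.2]⟩

theorem jj_eq (ω : List (Fin 4)) : ω.flatMap jj = (ω.flatMap J).map Fin.val := by
  have h1 : ∀ i : Fin 4, jj i = (J i).map Fin.val := by decide +kernel
  induction ω with
  | nil => rfl
  | cons i ω ih => rw [List.flatMap_cons, List.flatMap_cons, List.map_append, ih, h1]

/-- conjugation and field automorphism on words -/
theorem conj_sg [CharP K 2] {om : K} (τ : K ≃+* K) {b : Bool}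
    (hτ : ∀ c, c = 1 ∨ c = 2 ∨ c = 3 → τ (tv om c) = tv om (if b = true then sqc c else c)) (ω : List (Fin 4)) :
    ∀ w : List (ℕ × ℕ), (∀ e ∈ w, e.1 < 72 ∧ (e.2 = 1 ∨ e.2 = 2 ∨ e.2 = 3)) →
      nI hp K (ω.flatMap J) * glEquiv chevE6 τ (sg hE6 om w) * (nI hp K (ω.flatMap J))⁻¹ =
        sg hE6 om (mpE (ω.flatMap jj) b w)
  | [], _ => by
    rw [sg_nil, map_one, mul_one, mul_inv_cancel]
    rfl
  | e :: l, h => by
    have h1 := h e List.mem_cons_self
    have ih := conj_sg τ hτ ω l fun e he => h e (List.mem_cons_of_mem _ he)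
    have e0 : mpE (ω.flatMap jj) b (e :: l) =
      (pw (ω.flatMap jj) e.1, if b = true then sqc e.2 else e.2) :: mpE (ω.flatMap jj) b l := rfl
    rw [e0, sg_cons, sg_cons, ← ih, map_mul, glE_xG, hτ e.2 h1.2]
    obtain ⟨η, h3, h4⟩ := Cfsg.Agent.Nodes.RGDTwCoord.conj_xG (K := K) (hp := hp) (ω.flatMap J)
      (show e.1 < chevE6.nroots from h1.1)
    have h5 : η = 1 := h3.eq_one two_zero
    have h6 := h4 (tv om (if b = true then sqc e.2 else e.2))
    rw [h5, one_mul, ← (pw_eq _ _ (jj_eq ω) h1.1).2] at h6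
    show _ = _ * xG hE6 (pw (ω.flatMap jj) e.1) (tv om (if b = true then sqc e.2 else e.2))
    have h7 : xG hE6 (pw (ω.flatMap jj) e.1) (tv om (if b = true then sqc e.2 else e.2)) =
      nI hp K (ω.flatMap J) * xG hE6 e.1 (tv om (if b = true then sqc e.2 else e.2)) * (nI hp K (ω.flatMap J))⁻¹ := h6.symm
    rw [h7]
    group

theorem mpE_ok {ω : List (Fin 4)} {b : Bool} {w : List (ℕ × ℕ)} (h : ∀ e ∈ w, e.1 < 72 ∧ (e.2 = 1 ∨ e.2 = 2 ∨ e.2 = 3)) :
    ∀ e ∈ mpE (ω.flatMap jj) b w, e.1 < 72 ∧ (e.2 = 1 ∨ e.2 = 2 ∨ e.2 = 3) := by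
  intro e he
  obtain ⟨e', he', rfl⟩ := List.mem_map.1 he
  have h1 := h e' he'
  refine ⟨(pw_eq _ _ (jj_eq ω) h1.1).1, ?_⟩
  show (if b = true then sqc e'.2 else e'.2) = 1 ∨ (if b = true then sqc e'.2 else e'.2) = 2 ∨
    (if b = true then sqc e'.2 else e'.2) = 3
  cases b
  · rw [if_neg (by simp)]
    exact h1.2
  · rw [if_pos rfl]
    rcases h1.2 with h | h | h <;> rw [h]
    · exact Or.inl rfl
    · exact Or.inr (Or.inr rfl)
    · exact Or.inr (Or.inl rfl)

theorem ex_ok {e : ℕ × ℕ} (he : okL e = true) : ∀ e' ∈ ex e, e'.1 < 72 ∧ (e'.2 = 1 ∨ e'.2 = 2 ∨ e'.2 = 3) := by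
  obtain ⟨s, c⟩ := e
  have h := of_decide_eq_true he
  simp only at h
  rcases h with rfl | rfl | rfl | rfl | ⟨h, hc⟩
  · intro e' he'
    rw [show ex (46, c) = [(46, 1)] from rfl, List.mem_singleton] at he'
    subst he'
    exact ⟨by norm_num, Or.inl rfl⟩
  · intro e' he'
    rw [show ex (25, c) = [(25, 1)] from rfl, List.mem_singleton] at he'
    subst he'
    exact ⟨by norm_num, Or.inl rfl⟩
  · intro e' he'
    rw [show ex (39, c) = [(39, 1)] from rfl, List.mem_singleton] at he'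
    subst he'
    exact ⟨by norm_num, Or.inl rfl⟩
  · intro e' he'
    rw [show ex (32, c) = [(32, 1)] from rfl, List.mem_singleton] at he'
    subst he'
    exact ⟨by norm_num, Or.inl rfl⟩
  · have hsq : sqc c = 1 ∨ sqc c = 2 ∨ sqc c = 3 := by
      rcases hc with rfl | rfl | rfl
      · exact Or.inl rfl
      · exact Or.inr (Or.inr rfl)
      · exact Or.inr (Or.inl rfl)
    intro e' he'
    rcases h with rfl | rfl | rfl | rfl
    · rw [show ex (56, c) = [(36, sqc c), (56, c)] from rfl, List.mem_cons, List.mem_singleton] at he'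
      rcases he' with rfl | rfl
      · exact ⟨by norm_num, hsq⟩
      · exact ⟨by norm_num, hc⟩
    · rw [show ex (15, c) = [(35, sqc c), (15, c)] from rfl, List.mem_cons, List.mem_singleton] at he'
      rcases he' with rfl | rfl
      · exact ⟨by norm_num, hsq⟩
      · exact ⟨by norm_num, hc⟩
    · rw [show ex (42, c) = [(37, sqc c), (42, c)] from rfl, List.mem_cons, List.mem_singleton] at he'
      rcases he' with rfl | rfl
      · exact ⟨by norm_num, hsq⟩
      · exact ⟨by norm_num, hc⟩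
    · rw [show ex (29, c) = [(34, sqc c), (29, c)] from rfl, List.mem_cons, List.mem_singleton] at he'
      rcases he' with rfl | rfl
      · exact ⟨by norm_num, hsq⟩
      · exact ⟨by norm_num, hc⟩

theorem ex_mem [CharP K 2] {om : K} (ho : om * om = om + 1) {e : ℕ × ℕ} (he : okL e = true) :
    sg hE6 om (ex e) ∈ twistedE6 K 2 := by
  obtain ⟨s, c⟩ := e
  have h := of_decide_eq_true he
  simp only at h
  rcases h with rfl | rfl | rfl | rfl | ⟨h, hc⟩
  · show 1 * xG hE6 46 (tv om 1) ∈ twistedE6 K 2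
    rw [one_mul]
    exact single_mem (show (1 : K) ^ 2 = 1 from one_pow 2) (by simp)
  · show 1 * xG hE6 25 (tv om 1) ∈ twistedE6 K 2
    rw [one_mul]
    exact single_mem (show (1 : K) ^ 2 = 1 from one_pow 2) (by simp)
  · show 1 * xG hE6 39 (tv om 1) ∈ twistedE6 K 2
    rw [one_mul]
    exact single_mem (show (1 : K) ^ 2 = 1 from one_pow 2) (by simp)
  · show 1 * xG hE6 32 (tv om 1) ∈ twistedE6 K 2
    rw [one_mul]
    exact single_mem (show (1 : K) ^ 2 = 1 from one_pow 2) (by simp)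
  · have hOk : Ok om c := by
      rcases hc with rfl | rfl | rfl
      · exact Or.inl rfl
      · exact Or.inr ⟨ho, Or.inl rfl⟩
      · exact Or.inr ⟨ho, Or.inr rfl⟩
    have h2 := tv_sq hOk
    rcases h with rfl | rfl | rfl | rfl
    · show 1 * xG hE6 56 (tv om c) * xG hE6 36 (tv om (sqc c)) ∈ twistedE6 K 2
      rw [one_mul, ← h2]
      exact pair_mem (tv om c) (rs := (56, 36)) (by simp)
    · show 1 * xG hE6 15 (tv om c) * xG hE6 35 (tv om (sqc c)) ∈ twistedE6 K 2
      rw [one_mul, ← h2]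
      exact pair_mem (tv om c) (rs := (15, 35)) (by simp)
    · show 1 * xG hE6 42 (tv om c) * xG hE6 37 (tv om (sqc c)) ∈ twistedE6 K 2
      rw [one_mul, ← h2]
      exact pair_mem (tv om c) (rs := (42, 37)) (by simp)
    · show 1 * xG hE6 29 (tv om c) * xG hE6 34 (tv om (sqc c)) ∈ twistedE6 K 2
      rw [one_mul, ← h2]
      exact pair_mem (tv om c) (rs := (29, 34)) (by simp)

theorem flat_mem [CharP K 2] {om : K} (ho : om * om = om + 1) {l : List (ℕ × ℕ)} (hl : ∀ e ∈ l, okL e = true) :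
    sg hE6 om (l.flatMap ex) ∈ twistedE6 K 2 := by
  induction l with
  | nil => exact one_mem _
  | cons e l ih =>
    rw [List.flatMap_cons, sg_append]
    exact mul_mem (ih fun e he => hl e (List.mem_cons_of_mem _ he)) (ex_mem ho (hl e List.mem_cons_self))

theorem flat_ok {l : List (ℕ × ℕ)} (hl : ∀ e ∈ l, okL e = true) :
    ∀ e ∈ l.flatMap ex, e.1 < 72 ∧ (e.2 = 1 ∨ e.2 = 2 ∨ e.2 = 3) := by
  intro e he
  obtain ⟨e', he', h⟩ := List.mem_flatMap.1 he
  exact ex_ok (hl e' he') e h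

end words

/-! ### The involutions `n_ω τ` -/

section inv

variable {K : Type u} [Field K] [Fintype K] {φ : K →+* K} (hφ : ∀ x, φ x = x ^ 2)
  (hqq : ∀ t : K, (t ^ 2) ^ 2 = t)

/-- the product of the reflections of a word -/
noncomputable def kw (ω : List (Fin 4)) : ↥(twistedE6 K 2) := (ω.map (nn hφ)).prod

theorem coe_kw (ω : List (Fin 4)) : ((kw hφ ω : ↥(twistedE6 K 2)) : GL chevE6.Idx K) = nI hp K (ω.flatMap J) := by
  induction ω with
  | nil => rfl
  | cons i ω ih =>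
    have h1 : kw hφ (i :: ω) = nn hφ i * kw hφ ω := by
      unfold kw
      rw [List.map_cons, List.prod_cons]
    have h2 : nI hp K ((i :: ω).flatMap J) = nI hp K (J i) * nI hp K (ω.flatMap J) := by
      unfold nI
      rw [List.flatMap_cons, List.map_append, List.prod_append]
    rw [h1, h2, Subgroup.coe_mul, ih]
    rfl

theorem st_kw (τ : K ≃+* K) (ω : List (Fin 4)) : st 2 τ (kw hφ ω) = kw hφ ω := by
  unfold kw
  rw [map_list_prod, List.map_map]
  congr 1
  refine List.map_congr_left fun i _ => ?_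
  exact st_n hφ τ i

section
variable {W6 : Type*} [Group W6] (cs6 : CoxeterSystem CoxeterMatrix.E₆ W6)

omit [Fintype K] in
theorem vec_wp (o : List (Fin 6)) {s : ℕ} (hs : s < chevE6.nroots) :
    Cfsg.Agent.Nodes.RGDChev.vec chevE6 6 (wp chevE6 o s) =
      Cfsg.Agent.ChevalleyStructure.CoxeterGeom.rep cs6 hp.isCartan (cs6.wordProd o) (Cfsg.Agent.Nodes.RGDChev.vec chevE6 6 s) := by
  induction o with
  | nil => rw [wordProd_nil, map_one, Module.End.one_apply]; rfl
  | cons i o ih =>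
    rw [wordProd_cons, rep_mul_apply, ← ih, rep_vec hp cs6 i (wp_lt hp o hs)]
    rfl

end

omit [Fintype K] in
theorem wp_append (o o' : List (Fin 6)) (s : ℕ) : wp chevE6 (o ++ o') s = wp chevE6 o (wp chevE6 o' s) := by
  induction o with
  | nil => rfl
  | cons i o ih =>
    show chevE6.reflectRoot i (wp chevE6 (o ++ o') s) = chevE6.reflectRoot i (wp chevE6 o (wp chevE6 o' s))
    rw [ih]

omit [Fintype K] in
theorem twisted_le : twistedE6 K 2 ≤ chevE6.group K := by
  rw [twisted_le_iff]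
  exact ⟨fun t _ r _ => xG_mem_group hE6 r t, fun t rs _ => mul_mem (xG_mem_group hE6 _ _) (xG_mem_group hE6 _ _)⟩

theorem chk_inv : (F4W.dat.all fun d => (List.range 6).all fun i =>
    decide (pw (d.2.flatMap jj) (pw (d.2.flatMap jj) (chevE6.simple i)) = chevE6.simple i)) = true := by
  decide +kernel

theorem wp_inv {d : List ℕ × List (Fin 4)} (hd : d ∈ F4W.dat) {s : ℕ} (hs : s < 72) :
    wp chevE6 (d.2.flatMap J) (wp chevE6 (d.2.flatMap J) s) = s := by
  let cs6 : CoxeterSystem CoxeterMatrix.E₆ CoxeterMatrix.E₆.Group := CoxeterMatrix.E₆.toCoxeterSystem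
  have key : cs6.wordProd (d.2.flatMap J ++ d.2.flatMap J) = 1 := by
    refine eq_one_of_fix cs6 hp.isCartan _ fun i => ?_
    have h1 := of_decide_eq_true (List.all_eq_true.1 (List.all_eq_true.1 chk_inv d hd) i.val (List.mem_range.2 i.2))
    have hsi : chevE6.simple i.val < chevE6.nroots :=
      Cfsg.Agent.ChevalleyStructure.NPerm.simple_lt hp.inList (lt_rank hp i)
    have h2 := pw_eq _ _ (jj_eq d.2) (show chevE6.simple i.val < 72 from hsi)
    have h3 := pw_eq _ _ (jj_eq d.2) h2.1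
    rw [h3.2, h2.2] at h1
    have h4 := vec_wp cs6 (d.2.flatMap J ++ d.2.flatMap J) hsi
    rw [wp_append, h1, vec_simple hp i] at h4
    exact h4.symm
  have h4 := vec_wp cs6 (d.2.flatMap J ++ d.2.flatMap J) (show s < chevE6.nroots from hs)
  rw [key, map_one, Module.End.one_apply, wp_append] at h4
  exact vec_inj hp (wp_lt hp _ (wp_lt hp _ hs)) hs h4

/-- the squares are central -/
theorem kw_sq [CharP K 2] {d : List ℕ × List (Fin 4)} (hd : d ∈ F4W.dat) (g : ↥(twistedE6 K 2)) :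
    kw hφ d.2 * (kw hφ d.2 * g * (kw hφ d.2)⁻¹) * (kw hφ d.2)⁻¹ = g := by
  have key : chevE6.group K ≤ Subgroup.centralizer {nI hp K (d.2.flatMap J) * nI hp K (d.2.flatMap J)} := by
    rw [group_le_iff hp.inList]
    intro r hr t
    rw [Subgroup.mem_centralizer_singleton_iff]
    obtain ⟨η, h3, h4⟩ := Cfsg.Agent.Nodes.RGDTwCoord.conj_xG (K := K) (hp := hp) (d.2.flatMap J) hr
    obtain ⟨η', h3', h4'⟩ := Cfsg.Agent.Nodes.RGDTwCoord.conj_xG (K := K) (hp := hp) (d.2.flatMap J)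
      (wp_lt hp (d.2.flatMap J) hr)
    have h6 := h4 t
    have h6' := h4' t
    rw [h3.eq_one two_zero, one_mul] at h6
    rw [h3'.eq_one two_zero, one_mul, wp_inv hd hr, ← h6] at h6'
    have h7 : xG hp.inList r t = nI hp K (d.2.flatMap J) * nI hp K (d.2.flatMap J) * xG hp.inList r t *
        (nI hp K (d.2.flatMap J) * nI hp K (d.2.flatMap J))⁻¹ := by
      have e : nI hp K (d.2.flatMap J) * nI hp K (d.2.flatMap J) * xG hp.inList r t *
        (nI hp K (d.2.flatMap J) * nI hp K (d.2.flatMap J))⁻¹ = nI hp K (d.2.flatMap J) *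
        (nI hp K (d.2.flatMap J) * xG hp.inList r t * (nI hp K (d.2.flatMap J))⁻¹) * (nI hp K (d.2.flatMap J))⁻¹ := by
        group
      rw [e]
      exact h6'.symm
    rw [eq_mul_inv_iff_mul_eq] at h7
    exact h7
  apply Subtype.ext
  have h1 : (g : GL chevE6.Idx K) ∈ chevE6.group K := twisted_le g.2
  have h2 := Subgroup.mem_centralizer_singleton_iff.1 (key h1)
  show ((kw hφ d.2 : ↥(twistedE6 K 2)) : GL chevE6.Idx K) * (((kw hφ d.2 : ↥(twistedE6 K 2)) : GL chevE6.Idx K) * g *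
    (((kw hφ d.2 : ↥(twistedE6 K 2)) : GL chevE6.Idx K))⁻¹) * (((kw hφ d.2 : ↥(twistedE6 K 2)) : GL chevE6.Idx K))⁻¹ = g
  rw [coe_kw]
  have h3 : nI hp K (d.2.flatMap J) * (nI hp K (d.2.flatMap J) * (g : GL chevE6.Idx K) *
      (nI hp K (d.2.flatMap J))⁻¹) * (nI hp K (d.2.flatMap J))⁻¹ =
      (nI hp K (d.2.flatMap J) * nI hp K (d.2.flatMap J)) * (g : GL chevE6.Idx K) *
        (nI hp K (d.2.flatMap J) * nI hp K (d.2.flatMap J))⁻¹ := by group
  rw [h3, mul_inv_eq_iff_eq_mul]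
  first
    | exact h2
    | exact h2.symm

/-- `n_ω τ` -/
noncomputable def mz (ω : List (Fin 4)) (τ : K ≃+* K) : MulAut ↥(twistedE6 K 2) :=
  MulAut.conj (kw hφ ω) * st 2 τ

theorem mz_sq [CharP K 2] {d : List ℕ × List (Fin 4)} (hd : d ∈ F4W.dat) {τ : K ≃+* K} (hτ : τ * τ = 1) :
    mz hφ d.2 τ * mz hφ d.2 τ = 1 := by
  have h1 : st 2 τ * st 2 τ = 1 := by
    have := st_pow (q := 2) (τ := τ) (k := 2) (by rw [pow_two, hτ])
    rwa [pow_two] at this
  refine MulEquiv.ext fun x => ?_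
  have h2 : st 2 τ (st 2 τ x) = x := by
    rw [← MulAut.mul_apply, h1, MulAut.one_apply]
  show kw hφ d.2 * st 2 τ (kw hφ d.2 * st 2 τ x * (kw hφ d.2)⁻¹) * (kw hφ d.2)⁻¹ = x
  rw [map_mul, map_mul, map_inv, st_kw, h2, kw_sq hφ hd]

section frame

variable {W : Type*} [Group W] (cs : CoxeterSystem CoxeterMatrix.F₄ W)

include cs hφ hqq in
/-- the torus part has order dividing 3 -/
theorem exists_tor [Finite W] [CharP K 2] {β : MulAut ↥(twistedE6 K 2)} (D : Diag (T K 2) (X φ 2) β 1) :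
    ∃ (τ : K ≃+* K) (t : MulAut ↥(twistedE6 K 2)), t * t * t = 1 ∧ β = t * st 2 τ := by
  have : Fact (Nat.Prime 2) := ⟨Nat.prime_two⟩
  have R := Cfsg.Agent.Nodes.RGDTwE6.rgd cs hφ hqq 2
  obtain ⟨τ, S⟩ := exists_ftau hφ hqq cs 2 D
  have S1 := (ntau_of_ftau hφ hqq S).mul (ntau_st hφ hqq τ cs 2).inv
  refine ⟨τ, β * (st 2 τ)⁻¹, ?_, by rw [inv_mul_cancel_right]⟩
  have D1 := S1.diag
  have D3 := (D1.mul D1).mul D1
  rw [one_mul, one_mul] at D3
  refine Diag.eq_one R (G1_top cs hφ hqq) D3 fun i x hx => ?_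
  obtain ⟨c, hc, h1⟩ := NTau.semi (coordE hφ hqq) S1 i
  have h2 : ∀ a, (β * (st 2 τ)⁻¹) (PhiE hφ hqq i (up a)) = PhiE hφ hqq i (up (c * a)) := by
    intro a
    have := h1 a
    rwa [mul_inv_cancel] at this
  obtain ⟨a, rfl⟩ := (mem_X hφ hqq i x).1 hx
  rw [MulAut.mul_apply, MulAut.mul_apply, h2, h2, h2]
  have h3 : c * c * c = 1 := by
    apply Subtype.ext
    have h4 := hqq (c : K)
    have h5 : (c : K) ≠ 0 := fun h => hc (Subtype.ext h)
    show (c : K) * c * c = 1
    apply mul_left_cancel₀ h5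
    linear_combination h4
  have h4 : c * (c * (c * a)) = a := by
    rw [← mul_assoc, ← mul_assoc, h3, one_mul]
  rw [h4]

omit [Fintype K] in
/-- involutions over the same coset of a group of odd order -/
theorem conj_of_cube {G : Type*} [Group G] {m₀ m t : G} (h0 : m₀ * m₀ = 1) (hm : m * m = 1) (ht : t * t * t = 1)
    (e : m = t * m₀) : ∃ s : G, m = s * m₀ * s⁻¹ := by
  refine ⟨t * t, ?_⟩
  subst e
  have h1 : m₀ * t * m₀ = t⁻¹ := by
    rw [eq_inv_iff_mul_eq_one]
    have : m₀ * t * m₀ * t = m₀ * (t * m₀ * (t * m₀)) * m₀⁻¹ := by group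
    rw [this, hm, mul_one, mul_inv_cancel]
  have h2 : (t * t)⁻¹ = t := by
    rw [inv_eq_iff_mul_eq_one]
    exact ht
  have h3 : m₀⁻¹ = m₀ := by
    rw [inv_eq_iff_mul_eq_one]
    exact h0
  rw [h2]
  have h4 : m₀ * t = t⁻¹ * m₀ := by
    have : m₀ * t = (m₀ * t * m₀) * m₀⁻¹ := by group
    rw [this, h1, h3]
  rw [mul_assoc, h4]
  group

include cs hφ hqq in
theorem sigma_one [Finite W] [CharP K 2] (hK : Fintype.card K = 2 ^ 2) (δ : MulAut ↥(twistedE6 K 2))
    (σ : Equiv.Perm (Fin 4)) (D : Diag (T K 2) (X φ 2) δ σ) : σ = 1 := by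
  have : Fact (Nat.Prime 2) := ⟨Nat.prime_two⟩
  have R := Cfsg.Agent.Nodes.RGDTwE6.rgd cs hφ hqq 2
  apply perm_F4 σ (D.matrix R)
  intro h3
  have h4 := Diag.card_eq D 0
  rw [h3] at h4
  exact card_ne hφ hqq hK one_lt_two h4

end frame

end inv

/-! ### The theorem -/

section main

/-- there is an `x` such that all `a`-invariant subgroups over `x` have order divisible by `13` and `19` -/
def PB {L : Type*} [Group L] (a : MulAut L) : Prop :=
  ∃ x : L, ∀ H : Subgroup L, x ∈ H → (∀ h ∈ H, a h ∈ H) → 13 ∣ Nat.card H ∧ 19 ∣ Nat.card H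

theorem PB.conj {L : Type*} [Group L] {a : MulAut L} (g : MulAut L) (h : PB a) : PB (g * a * g⁻¹) := by
  obtain ⟨x, hx⟩ := h
  refine ⟨g x, fun H h1 h2 => ?_⟩
  have h3 := hx (H.comap g.toMonoidHom) h1 (by
    intro k hk
    have h4 : g k ∈ H := hk
    have h5 := h2 _ h4
    have h6 : (g * a * g⁻¹) (g k) = g (a k) := by
      rw [MulAut.mul_apply, MulAut.mul_apply, MulAut.inv_apply_self]
    rw [h6] at h5
    exact h5)
  have h4 : Nat.card ↥(H.comap g.toMonoidHom) = Nat.card ↥H := by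
    refine Nat.card_congr ⟨fun y => ⟨g y.1, y.2⟩, fun y => ⟨g⁻¹ y.1, ?_⟩, fun y => ?_, fun y => ?_⟩
    · show g (g⁻¹ y.1) ∈ H
      rw [MulAut.apply_inv_self]
      exact y.2
    · exact Subtype.ext (MulAut.inv_apply_self _ g y.1)
    · exact Subtype.ext (MulAut.apply_inv_self _ g y.1)
  rwa [h4] at h3

theorem PB.of_conj {L : Type*} [Group L] {a b : MulAut L} {g : MulAut L} (h : PB b) (e : g * a * g⁻¹ = b) : PB a := by
  subst e
  have h1 := PB.conj g⁻¹ h
  have h2 : g⁻¹ * (g * a * g⁻¹) * g⁻¹⁻¹ = a := by group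
  rwa [h2] at h1

variable {K : Type u} [Field K] [Fintype K]

/-- all pairs are treated -/
theorem chk_cover : (F4W.dat.all fun d => [true, false].all fun b => decide (d.2 = [] ∧ b = false) ||
    certs.any fun c => decide (c.1 = d.2 ∧ c.2.1 = b)) = true := by
  decide +kernel

/-- the certificates -/
theorem pb_mz [CharP K 2] {φ : K →+* K} (hφ : ∀ x, φ x = x ^ 2) {om : K} (ho : om * om = om + 1)
    {d : List ℕ × List (Fin 4)} (hd : d ∈ F4W.dat) {τ : K ≃+* K} {b : Bool}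
    (hτ : ∀ c, c = 1 ∨ c = 2 ∨ c = 3 → τ (tv om c) = tv om (if b = true then sqc c else c))
    (hne : ¬ (d.2 = [] ∧ b = false)) : PB (mz hφ d.2 τ) := by
  have h1 := List.all_eq_true.1 (List.all_eq_true.1 chk_cover d hd) b (by cases b <;> simp)
  rw [Bool.or_eq_true] at h1
  have h2 := h1.resolve_left (fun h => hne (of_decide_eq_true h))
  obtain ⟨c, hc, h3⟩ := List.any_eq_true.1 h2
  obtain ⟨hc1, hc2⟩ := of_decide_eq_true h3
  have h4 := certs_ok hc
  unfold ok at h4
  rw [Bool.and_eq_true, Bool.and_eq_true, hc1, hc2] at h4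
  obtain ⟨h5, c19, c13⟩ := h4
  have hl : ∀ e ∈ c.2.2.1, okL e = true := List.all_eq_true.1 h5
  have hw := flat_ok hl
  have hw' := mpE_ok (ω := d.2) (b := b) hw
  have hOk : ∀ l : List (ℕ × ℕ), (∀ e ∈ l, e.1 < 72 ∧ (e.2 = 1 ∨ e.2 = 2 ∨ e.2 = 3)) →
      ∀ e ∈ l, e.1 < chevE6.nroots ∧ Ok om e.2 := fun l hl e he => ⟨(hl e he).1, by
    rcases (hl e he).2 with h | h | h
    · exact Or.inl h
    · exact Or.inr ⟨ho, Or.inl h⟩
    · exact Or.inr ⟨ho, Or.inr h⟩⟩
  have hT := E6Msk.tabOk hE6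
  have p19 : (19 : ℕ).Prime := by norm_num
  have p13 : (13 : ℕ).Prime := by norm_num
  have d19 := chk_dvd (K := K) hT (hOk _ hw) p19 (show 78 = MVec.dm chevE6 from rfl) c19
  have d13 := chk_dvd (K := K) hT (hOk _ (fun e he => (List.mem_append.1 he).elim (hw' e) (hw e))) p13
    (show 78 = MVec.dm chevE6 from rfl) c13
  rw [sg_append, ← conj_sg τ hτ d.2 _ hw] at d13
  let x : ↥(twistedE6 K 2) := ⟨sg hE6 om (c.2.2.1.flatMap ex), flat_mem ho hl⟩
  have hx19 : 19 ∣ orderOf x := by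
    rw [← Subgroup.orderOf_coe x]
    exact d19
  have hx13 : 13 ∣ orderOf (x * mz hφ d.2 τ x) := by
    rw [← Subgroup.orderOf_coe (x * mz hφ d.2 τ x)]
    have e : ((x * mz hφ d.2 τ x : ↥(twistedE6 K 2)) : GL chevE6.Idx K) = sg hE6 om (c.2.2.1.flatMap ex) *
        (nI hp K (d.2.flatMap J) * glEquiv chevE6 τ (sg hE6 om (c.2.2.1.flatMap ex)) * (nI hp K (d.2.flatMap J))⁻¹) := by
      rw [← coe_kw hφ]
      rfl
    rw [e]
    exact d13
  refine ⟨x, fun H hx hinv => ⟨?_, ?_⟩⟩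
  · exact hx13.trans (Subgroup.orderOf_dvd_natCard H (mul_mem hx (hinv x hx)))
  · exact hx19.trans (Subgroup.orderOf_dvd_natCard H hx)

/-- **The involutory automorphisms of `²E₆(2)`.** -/
theorem inv_TE6 (hK : Fintype.card K = 2 ^ 2) (a : MulAut ↥(twistedE6 K 2)) (haa : a * a = 1) (ha1 : a ≠ 1) :
    ∃ x : ↥(twistedE6 K 2), ∀ H : Subgroup ↥(twistedE6 K 2), x ∈ H → (∀ h ∈ H, a h ∈ H) →
      13 ∣ Nat.card H ∧ 19 ∣ Nat.card H := by
  have hq : IsPrimePow 2 := Nat.prime_two.isPrimePow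
  obtain ⟨φ, hφ, hqq⟩ := exists_frob hq hK
  have : Fact (Nat.Prime 2) := ⟨Nat.prime_two⟩
  have : CharP K 2 := by
    obtain ⟨p, hp'⟩ := CharP.exists K
    have hpp : Fact p.Prime := ⟨CharP.char_is_prime K p⟩
    obtain ⟨n, hn, hc⟩ := FiniteField.card K p
    rw [hK] at hc
    have h1 : p ∣ 2 ^ 2 := by rw [hc]; exact dvd_pow_self p n.pos.ne'
    have h2 : p = 2 := (Nat.prime_dvd_prime_iff_eq hpp.out Nat.prime_two).1 (hpp.out.dvd_of_dvd_pow h1)
    rw [← h2]
    exact hp'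
  let cs : CoxeterSystem CoxeterMatrix.F₄ CoxeterMatrix.F₄.Group := CoxeterMatrix.F₄.toCoxeterSystem
  have hW : Finite CoxeterMatrix.F₄.Group :=
    Cfsg.Agent.Nodes.RGDFold.finite_W (hp := Cfsg.Agent.Nodes.RGDTwE6.hp) cs
      Cfsg.Agent.Nodes.RGDTwE6.isCartan Cfsg.Agent.Nodes.RGDTwE6.foldData
  have R := Cfsg.Agent.Nodes.RGDTwE6.rgd cs hφ hqq 2
  have hsimple := Cfsg.Agent.S1070.result (K := K) hq hK
  have hf : Function.Injective (MulAut.conj : ↥(twistedE6 K 2) →* MulAut ↥(twistedE6 K 2)) := by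
    rw [injective_iff_map_eq_one]
    intro t ht
    refine Cfsg.Agent.H166.OutTwESix.eq_one_of_central hsimple fun y => ?_
    have h1 : MulAut.conj t y = y := by rw [ht, MulAut.one_apply]
    rw [MulAut.conj_apply, mul_inv_eq_iff_eq_mul] at h1
    exact h1
  obtain ⟨γ, w, hww, hP, hform⟩ := AutN.exists_form R hf (GG_eq_top (G1_top cs hφ hqq))
    (fun δ σ D => sigma_one hφ hqq cs hK δ σ D) haa
  obtain ⟨d, hd, hwd⟩ := F4W.exists_word cs hww hP
  obtain ⟨β, D, e⟩ := hform d.2 hwd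
  obtain ⟨τ, t, ht, hβ⟩ := exists_tor hφ hqq cs D
  obtain ⟨om, ho, hall⟩ := exists_om hK
  obtain ⟨b, hb1, hb2, hττ⟩ := tau_cases ho hall τ
  have hm0 := mz_sq hφ hd hττ
  have hmm : (γ * a * γ⁻¹) * (γ * a * γ⁻¹) = 1 := by
    have : (γ * a * γ⁻¹) * (γ * a * γ⁻¹) = γ * (a * a) * γ⁻¹ := by group
    rw [this, haa, mul_one, mul_inv_cancel]
  let k : MulAut ↥(twistedE6 K 2) := MulAut.conj (kw hφ d.2)
  have e2 : γ * a * γ⁻¹ = (k * t * k⁻¹) * mz hφ d.2 τ := by
    rw [e, hβ]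
    show k * (t * st 2 τ) = (k * t * k⁻¹) * (k * st 2 τ)
    group
  have ht' : (k * t * k⁻¹) * (k * t * k⁻¹) * (k * t * k⁻¹) = 1 := by
    have : (k * t * k⁻¹) * (k * t * k⁻¹) * (k * t * k⁻¹) = k * (t * t * t) * k⁻¹ := by group
    rw [this, ht, mul_one, mul_inv_cancel]
  obtain ⟨s, hs⟩ := conj_of_cube hm0 hmm ht' e2
  have hne : ¬ (d.2 = [] ∧ b = false) := by
    rintro ⟨h1, h2⟩
    apply ha1
    have h3 : mz hφ d.2 τ = 1 := by
      have h5 : kw hφ d.2 = 1 := by
        unfold kw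
        rw [h1]
        rfl
      have h6 : st 2 (1 : K ≃+* K) = (1 : MulAut ↥(twistedE6 K 2)) := by
        have := st_pow (q := 2) (τ := (1 : K ≃+* K)) (k := 1) (by rw [one_pow])
        rwa [pow_one] at this
      unfold mz
      rw [h5, map_one, one_mul, hb2 h2, h6]
    rw [h3, mul_one, mul_inv_cancel] at hs
    have h4 : a = γ⁻¹ * (γ * a * γ⁻¹) * γ := by group
    rw [h4, hs, mul_one, inv_mul_cancel]
  have hPB := pb_mz hφ ho hd hb1 hne
  exact PB.of_conj (PB.conj s hPB) hs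

end main

end Cfsg.Agent.H378.TE6two
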