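import Mathlib
import Cfsg.Agent.H378.Spr.TE6two
import Cfsg.Agent.H862.Spr.ULTwo

/-!
# The involutory automorphisms of `²E₆(2)` : the statement of S3938 (helper378)
-/

set_option autoImplicit false

namespace Cfsg.Agent.H378.TE6two

open Cfsg.Lie

universe u

/-- **All automorphisms of order 2 of `²E₆(2)`** (inner and outer), from the theorem on the overgroups of `{13, 19}`. -/
theorem body_invol {K : Type u} [Field K] [Fintype K] (hK : Fintype.card K = 2 ^ 2)
    (hKtop : ∀ H : Subgroup ↥(twistedE6 K 2), 13 ∣ Nat.card H → 19 ∣ Nat.card H → H = ⊤)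
    (a : MulAut ↥(twistedE6 K 2)) (ha : orderOf a = 2) : H862.Spr.Body a := by
  have haa : a * a = 1 := by
    have h1 := pow_orderOf_eq_one a
    rw [ha, pow_two] at h1
    exact h1
  have ha1 : a ≠ 1 := by
    rintro rfl
    rw [orderOf_one] at ha
    omega
  obtain ⟨x, hx⟩ := inv_TE6 hK a haa ha1
  exact ⟨x, fun H h1 h2 => hKtop H (hx H h1 h2).1 (hx H h1 h2).2⟩

end Cfsg.Agent.H378.TE6two
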